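import Mathlib
import Cfsg.Agent.Lib.Helper63.PHyp.Defs

/-!
PHYP (S5974) package [SCALR]: an element `x` of `Ω⁺` with `x ^ r` scalar (`r` odd) is `± y`
with `y` an isometry of order `r`.
-/

set_option autoImplicit false
open scoped MatrixGroups
open Matrix

namespace Cfsg.Agent.Lib.Helper21.PHyp

open Cfsg.Agent.Lib.Helper63.PHyp

universe u

theorem scalr_quad_smul {F : Type u} [Field F] (d : ℕ) (z : F) (v : Fin d ⊕ Fin d → F) :
    Cfsg.quadFormPlus d F (z • v) = z * z * Cfsg.quadFormPlus d F v := by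
  unfold Cfsg.quadFormPlus
  rw [Finset.mul_sum]
  refine Finset.sum_congr rfl (fun i _ => ?_)
  simp only [Pi.smul_apply, smul_eq_mul]
  ring

theorem scalr_mem_iso {F : Type u} [Field F] (d : ℕ) (g : GL (Fin d ⊕ Fin d) F) :
    g ∈ Cfsg.isometryGroup F (Cfsg.quadFormPlus d F) ↔
      ∀ u : Fin d ⊕ Fin d → F, Cfsg.quadFormPlus d F
        ((g : Matrix (Fin d ⊕ Fin d) (Fin d ⊕ Fin d) F) *ᵥ u) = Cfsg.quadFormPlus d F u := by
  constructor
  · intro h u
    exact h u u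
  · intro h u _
    exact h u

theorem pkgScalR : PkgScalR.{u} := by
  intro F _ _ d r hd hr x hx hpow hns
  classical
  -- x is an isometry
  have hxI : x ∈ Cfsg.isometryGroup F (Cfsg.quadFormPlus d F) := by
    obtain ⟨x', _, rfl⟩ := hx
    exact x'.2
  obtain ⟨z, hz⟩ := hpow
  -- z * z = 1
  have hzz : z * z = 1 := by
    have hpI : x ^ r ∈ Cfsg.isometryGroup F (Cfsg.quadFormPlus d F) := Subgroup.pow_mem _ hxI r
    have h1 := (scalr_mem_iso d (x ^ r)).1 hpI
    let i₀ : Fin d := ⟨0, hd⟩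
    let v₀ : Fin d ⊕ Fin d → F :=
      Sum.elim (fun i => if i = i₀ then 1 else 0) (fun i => if i = i₀ then 1 else 0)
    have hv₀ : Cfsg.quadFormPlus d F v₀ = 1 := by
      have hterm : ∀ i : Fin d, (if i = i₀ then (1 : F) else 0) * (if i = i₀ then (1 : F) else 0) =
          if i = i₀ then 1 else 0 := by
        intro i; split_ifs <;> simp
      simp [Cfsg.quadFormPlus, v₀, hterm]
    have h2 := h1 v₀
    rw [hz, Matrix.smul_mulVec, Matrix.one_mulVec, scalr_quad_smul, hv₀, mul_one] at h2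
    exact h2
  -- the scalar unit
  let sc : GL (Fin d ⊕ Fin d) F :=
    ⟨z • (1 : Matrix (Fin d ⊕ Fin d) (Fin d ⊕ Fin d) F),
     z • (1 : Matrix (Fin d ⊕ Fin d) (Fin d ⊕ Fin d) F),
     by rw [Matrix.smul_mul, Matrix.one_mul, smul_smul, hzz, one_smul],
     by rw [Matrix.smul_mul, Matrix.one_mul, smul_smul, hzz, one_smul]⟩
  have hyM : ((sc * x : GL (Fin d ⊕ Fin d) F) : Matrix (Fin d ⊕ Fin d) (Fin d ⊕ Fin d) F) =
      z • (x : Matrix (Fin d ⊕ Fin d) (Fin d ⊕ Fin d) F) := by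
    show (z • (1 : Matrix (Fin d ⊕ Fin d) (Fin d ⊕ Fin d) F)) *
      (x : Matrix (Fin d ⊕ Fin d) (Fin d ⊕ Fin d) F) = _
    rw [Matrix.smul_mul, Matrix.one_mul]
  refine ⟨sc * x, ?_, ?_, ?_, ?_⟩
  · -- isometry
    rw [scalr_mem_iso]
    intro u
    rw [hyM, Matrix.smul_mulVec, scalr_quad_smul, hzz, one_mul]
    exact (scalr_mem_iso d x).1 hxI u
  · -- y ^ r = 1
    apply Units.ext
    rw [Units.val_pow_eq_pow_val, hyM, _root_.smul_pow, ← Units.val_pow_eq_pow_val, hz, smul_smul]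
    obtain ⟨k, hk⟩ := hr
    have : z ^ r * z = 1 := by
      rw [hk, pow_succ, pow_mul, pow_two, hzz, one_pow, one_mul, hzz]
    rw [this, one_smul]
    rfl
  · -- y ≠ 1
    intro h1
    apply hns z
    have h2 : z • (x : Matrix (Fin d ⊕ Fin d) (Fin d ⊕ Fin d) F) = 1 := by
      rw [← hyM, h1]; rfl
    have h3 := congrArg (fun M => z • M) h2
    simp only [smul_smul, hzz, one_smul] at h3
    exact h3
  · intro W hW
    rintro _ ⟨w, hw, rfl⟩
    have h1 : Matrix.toLin' ((sc * x : GL (Fin d ⊕ Fin d) F) :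
        Matrix (Fin d ⊕ Fin d) (Fin d ⊕ Fin d) F) w ∈ W := hW ⟨w, hw, rfl⟩
    have h2 : Matrix.toLin' (x : Matrix (Fin d ⊕ Fin d) (Fin d ⊕ Fin d) F) w =
        z • Matrix.toLin' ((sc * x : GL (Fin d ⊕ Fin d) F) :
          Matrix (Fin d ⊕ Fin d) (Fin d ⊕ Fin d) F) w := by
      rw [hyM, Matrix.toLin'_apply, Matrix.toLin'_apply, Matrix.smul_mulVec, smul_smul, hzz,
        one_smul]
    rw [h2]
    exact W.smul_mem z h1

end Cfsg.Agent.Lib.Helper21.PHyp
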